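import Mathlib
import Cfsg.Agent.Lib.Helper70.HH.S3789Defs
import Cfsg.Agent.Lib.Helper32.HHCrit
import Cfsg.Agent.Lib.Helper32.HHComm
import Cfsg.Agent.Lib.Helper32.TBHomog

/-!
# S3789, package (P6) `LemDimAbs` (helper51)

The dimension bound `dim V ≤ 2` in the critical configuration with a quadratic element.
-/

set_option autoImplicit false

namespace Cfsg.Agent.Lib.Helper51.HH

open Cfsg.Agent.Lib.Helper70.HH89 Cfsg.Agent.Lib.Helper32 Module

open scoped Pointwise

universe u v w

/-- The commutant of `a - 1` is the commutant of `a`. -/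
theorem commSub_sub_one {K : Type w} [Field K] {V : Type v} [AddCommGroup V] [Module K V]
    (a : Module.End K V) : commSub (a - 1) = commSub a := by
  ext φ
  rw [mem_commSub, mem_commSub, sub_mul, mul_sub, mul_one, one_mul]
  constructor
  · intro h
    exact sub_left_injective h
  · intro h
    rw [h]

/-- The arithmetic at the end of the proof. -/
theorem dimAbs_arith {p c d : ℕ} (hp : 3 ≤ p) (h1 : p * c + 1 ≤ p + d ^ 2)
    (h2 : d ^ 2 ≤ 2 * c) : d ≤ 2 := by
  by_contra hd
  have hd3 : 3 ≤ d := by omega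
  have hd9 : 9 ≤ d ^ 2 := by nlinarith
  have hc : 5 ≤ c := by omega
  have h3 : p * c + 1 ≤ p + 2 * c := by omega
  nlinarith [Nat.mul_le_mul hp (show 3 ≤ c by omega)]

/-- Package (P6) of S3789. -/
theorem lemDimAbs : LemDimAbs.{u, v, w} := by
  intro p q _ _ F _ _ _ G _ _ V _ _ _ _ ρ Q C _ x hp2 hqp hQ hfaith hgen hxp hirr hquad hCQ
    hCscal hcomm hcent hxC hxnc
  classical
  have hpp : p.Prime := Fact.out
  have hqq : q.Prime := Fact.out
  -- `x ≠ 1`, so `x` has order `p`
  obtain ⟨a₀, ha₀Q, ha₀⟩ := hxnc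
  have hx1 : x ≠ 1 := by
    rintro rfl
    exact ha₀ (by rw [one_mul, mul_one])
  have hord : orderOf x = p := by
    have h1 : orderOf x ∣ p := orderOf_dvd_of_pow_eq_one hxp
    rcases (Nat.dvd_prime hpp).mp h1 with h | h
    · exact absurd (orderOf_eq_one_iff.mp h) hx1
    · exact h
  have hcard : Nat.card (Subgroup.zpowers x) = p := by rw [Nat.card_zpowers, hord]
  have hx : IsPGroup p (Subgroup.zpowers x) := IsPGroup.of_card (n := 1) (by rw [hcard, pow_one])
  -- `C` is central
  have hCcen : C ≤ Subgroup.center G := by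
    intro c hc
    rw [Subgroup.mem_center_iff]
    intro g
    obtain ⟨μ, hμ⟩ := hCscal c hc
    apply hfaith
    rw [map_mul, map_mul, hμ, mul_smul_comm, smul_mul_assoc, mul_one, one_mul]
  -- the centralizer of `x`
  have hcx : ∀ g : G, x * g = g * x → g ∈ Subgroup.zpowers x ⊔ Subgroup.center G := by
    intro g hg
    have hgtop : g ∈ Q ⊔ Subgroup.zpowers x := by rw [hgen]; exact Subgroup.mem_top g
    have hgmul : g ∈ (Q : Set G) * (Subgroup.zpowers x : Set G) := by
      rw [← Subgroup.normal_mul]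
      exact hgtop
    obtain ⟨a, haQ, y, hy, rfl⟩ := Set.mem_mul.mp hgmul
    have hyx : x * y = y * x := by
      obtain ⟨k, rfl⟩ := Subgroup.mem_zpowers_iff.mp hy
      exact ((Commute.refl x).zpow_right k).eq
    have hax : x * a = a * x := by
      have h1 : x * (a * y) * y⁻¹ = a * y * x * y⁻¹ := by rw [hg]
      have h2 : x * (a * y) * y⁻¹ = x * a := by group
      have h3 : a * y * x * y⁻¹ = a * x := by
        rw [mul_assoc a y x, ← hyx]
        group
      rw [← h2, h1, h3]
    have haC : a ∈ C := hxC a haQ hax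
    exact Subgroup.mul_mem _ (Subgroup.mem_sup_right (hCcen haC)) (Subgroup.mem_sup_left hy)
  have hC : ∀ y ∈ Subgroup.zpowers x, y ≠ 1 →
      Subgroup.centralizer ({y} : Set G) = Subgroup.zpowers x ⊔ Subgroup.center G := by
    intro y hy hy1
    -- `x` is a power of `y`
    have hxy : x ∈ Subgroup.zpowers y := by
      obtain ⟨k, rfl⟩ := Subgroup.mem_zpowers_iff.mp hy
      have hk : ¬ (p : ℤ) ∣ k := by
        intro hdvd
        apply hy1
        obtain ⟨m, rfl⟩ := hdvd
        rw [zpow_mul, zpow_natCast, hxp, one_zpow]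
      have hcop : IsCoprime (p : ℤ) k :=
        (Nat.prime_iff_prime_int.mp hpp).coprime_iff_not_dvd.mpr hk
      obtain ⟨s, t, hst⟩ := hcop
      have h1 : x = (x ^ k) ^ t := by
        have h2 : x ^ (s * (p : ℤ) + t * k) = x := by rw [hst, zpow_one]
        rw [zpow_add, mul_comm s, zpow_mul, zpow_natCast, hxp, one_zpow, one_mul, mul_comm t,
          zpow_mul] at h2
        exact h2.symm
      have h3 : (x ^ k) ^ t ∈ Subgroup.zpowers (x ^ k) :=
        Subgroup.zpow_mem _ (Subgroup.mem_zpowers _) t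
      rw [← h1] at h3
      exact h3
    apply le_antisymm
    · intro g hg
      rw [Subgroup.mem_centralizer_iff] at hg
      have hgy : g * y = y * g := (hg y (Set.mem_singleton y)).symm
      apply hcx
      obtain ⟨k, rfl⟩ := Subgroup.mem_zpowers_iff.mp hxy
      have hc : Commute g y := hgy
      exact (hc.zpow_right k).eq.symm
    · apply sup_le
      · intro g hg
        rw [Subgroup.mem_centralizer_iff]
        intro z hz
        rw [Set.mem_singleton_iff] at hz
        subst hz
        obtain ⟨k, rfl⟩ := Subgroup.mem_zpowers_iff.mp hy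
        obtain ⟨l, rfl⟩ := Subgroup.mem_zpowers_iff.mp hg
        rw [← zpow_add, ← zpow_add, add_comm]
      · exact Subgroup.center_le_centralizer _
  -- irreducibility of the restriction to `Q`
  have hqF : (q : F) ≠ 0 := by
    intro h0
    have h1 := (CharP.cast_eq_zero_iff F p q).1 h0
    exact hqp ((Nat.prime_dvd_prime_iff_eq hpp hqq).1 h1).symm
  have hCnc : ∀ a ∈ Q, a ∉ C → ∃ b ∈ Q, a * b ≠ b * a := by
    intro a ha haC
    by_contra hcon
    push Not at hcon
    exact haC (hcent a ha hcon)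
  have hirrQ : ∀ U : Submodule F V, (∀ a ∈ Q, U.map (ρ a) ≤ U) → U = ⊥ ∨ U = ⊤ :=
    irr_of_central_type ρ hfaith Q x hgen q hQ hqF hirr C hCQ hCscal hCnc hcomm
  have hb := crit_commSub_bound ρ Q (Ne.symm hqp) hQ x hx hgen hC hfaith hirrQ
  rw [hcard] at hb
  have hsq := sq_finrank_le_mul_finrank_commSub 2 (ρ x - 1) (by rw [pow_two]; exact hquad)
  rw [commSub_sub_one] at hsq
  have hp3 : 3 ≤ p := by
    have := hpp.two_le
    omega
  exact dimAbs_arith hp3 hb hsq

end Cfsg.Agent.Lib.Helper51.HH
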