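import Mathlib
import Cfsg.Agent.Lib.Helper70.HH.S3789Defs
import Cfsg.Agent.Lib.Helper53.PGroups

/-!
# S3789, package (P4) `LemKer` (helper51)

The kernel of the `q`-group `Q` on a nonzero `Q`-invariant subspace `W₀ ≤ W` equals its kernel
on `W`.
-/

set_option autoImplicit false

namespace Cfsg.Agent.Lib.Helper51.HH

open Cfsg.Agent.Lib.Helper70.HH89

universe u v w

/-- The kernel of the subgroup `Q` on the subspace `W`, as a subgroup of `↥Q`. -/
def kerOn {F : Type w} [Field F] {H : Type u} [Group H] {V : Type v} [AddCommGroup V]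
    [Module F V] (ρ : Representation F H V) (Q : Subgroup H) (W : Submodule F V) :
    Subgroup ↥Q where
  carrier := {k | ∀ w ∈ W, ρ (k : H) w = w}
  one_mem' := by
    intro w _
    simp
  mul_mem' := by
    intro a b ha hb w hw
    simp only [Set.mem_ofPred_eq] at ha hb
    rw [Subgroup.coe_mul, map_mul, Module.End.mul_apply, hb w hw, ha w hw]
  inv_mem' := by
    intro a ha w hw
    simp only [Set.mem_ofPred_eq] at ha
    have h1 := ha w hw
    rw [Subgroup.coe_inv]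
    conv_lhs => rw [← h1]
    rw [← Module.End.mul_apply, ← map_mul, inv_mul_cancel, map_one, Module.End.one_apply]

theorem mem_kerOn {F : Type w} [Field F] {H : Type u} [Group H] {V : Type v} [AddCommGroup V]
    [Module F V] (ρ : Representation F H V) (Q : Subgroup H) (W : Submodule F V) (k : ↥Q) :
    k ∈ kerOn ρ Q W ↔ ∀ w ∈ W, ρ (k : H) w = w := Iff.rfl

theorem kerOn_normal {F : Type w} [Field F] {H : Type u} [Group H] {V : Type v}
    [AddCommGroup V] [Module F V] (ρ : Representation F H V) (Q : Subgroup H)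
    (W : Submodule F V) (hW : ∀ g ∈ Q, W.map (ρ g) ≤ W) : (kerOn ρ Q W).Normal := by
  constructor
  intro k hk g
  rw [mem_kerOn] at hk ⊢
  intro w hw
  have h1 : ρ ((g⁻¹ : ↥Q) : H) w ∈ W := hW _ (g⁻¹).2 (Submodule.mem_map_of_mem hw)
  have h2 := hk _ h1
  simp only [Subgroup.coe_mul, map_mul, Module.End.mul_apply]
  rw [h2, ← Module.End.mul_apply, ← map_mul]
  simp

/-- Package (P4) of S3789. -/
theorem lemKer : LemKer.{u, v, w} := by
  intro q _ F _ H _ _ V _ _ ρ Q W W₀ hQ hW₀W hW₀ hW hW₀inv hscal hD k hkQ hk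
  classical
  have hWm : ∀ g ∈ Q, ∀ w ∈ W, ρ g w ∈ W :=
    fun g hg w hw => hW g hg (Submodule.mem_map_of_mem hw)
  let K := kerOn ρ Q W
  let K₀ := kerOn ρ Q W₀
  have hKn : K.Normal := kerOn_normal ρ Q W hW
  have hK₀n : K₀.Normal := kerOn_normal ρ Q W₀ hW₀inv
  have hR : IsPGroup q (↥Q ⧸ K) := hQ.to_quotient K
  let D : Subgroup (↥Q ⧸ K) := K₀.map (QuotientGroup.mk' K)
  have hDn : D.Normal := Subgroup.Normal.map hK₀n _ (QuotientGroup.mk'_surjective K)
  have hDbot : D = ⊥ := by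
    by_contra hDne
    obtain ⟨z, hzD, hz1, hzc⟩ :=
      Cfsg.Agent.Lib.Helper53.exists_mem_center_of_normal_of_ne_bot hR D hDne
    obtain ⟨k', hk'K₀, rfl⟩ := Subgroup.mem_map.mp hzD
    have hk'K : k' ∉ K := fun h => hz1 ((QuotientGroup.eq_one_iff k').mpr h)
    have hcomm : ∀ h : ↥Q, k' * h * k'⁻¹ * h⁻¹ ∈ K := by
      intro h
      have h1 := Subgroup.mem_center_iff.mp hzc (QuotientGroup.mk' K h)
      rw [← QuotientGroup.eq_one_iff]
      have h2 : ((k' * h * k'⁻¹ * h⁻¹ : ↥Q) : ↥Q ⧸ K)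
          = (QuotientGroup.mk' K k') * (QuotientGroup.mk' K h) * (QuotientGroup.mk' K k')⁻¹
            * (QuotientGroup.mk' K h)⁻¹ := rfl
      rw [h2, ← h1]
      group
    have hfr : (k' : H) ∈ frat Q := by
      apply hD _ k'.2
      intro h hh w hw
      have h1 := hcomm ⟨h, hh⟩ (ρ (h * k') w) (hWm _ (Q.mul_mem hh k'.2) w hw)
      rw [← Module.End.mul_apply, ← map_mul] at h1
      have h2 : ((k' * ⟨h, hh⟩ * k'⁻¹ * (⟨h, hh⟩ : ↥Q)⁻¹ : ↥Q) : H) * (h * k') = k' * h := by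
        simp only [Subgroup.coe_mul, Subgroup.coe_inv]
        group
      rw [h2] at h1
      exact h1
    obtain ⟨μ, hμ⟩ := hscal _ hfr
    obtain ⟨w₀, hw₀, hw₀0⟩ := (Submodule.ne_bot_iff W₀).mp hW₀
    have h1 := hμ w₀ (hW₀W hw₀)
    have h2 := hk'K₀ w₀ hw₀
    have hμ1 : μ = 1 := by
      have h3 : (μ - 1) • w₀ = 0 := by rw [sub_smul, one_smul, ← h1, h2, sub_self]
      rcases smul_eq_zero.mp h3 with h | h
      · exact sub_eq_zero.mp h
      · exact absurd h hw₀0
    apply hk'K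
    intro w hw
    rw [hμ w hw, hμ1, one_smul]
  have hle : K₀ ≤ K := by
    have h1 : K₀ ≤ (QuotientGroup.mk' K).ker := (Subgroup.map_eq_bot_iff K₀).mp hDbot
    rwa [QuotientGroup.ker_mk'] at h1
  exact hle (show (⟨k, hkQ⟩ : ↥Q) ∈ K₀ from hk)

end Cfsg.Agent.Lib.Helper51.HH
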